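import Cfsg.Agent.Kf.O4
import Cfsg.Agent.Chev.ClsBCD

/-! Root systems without diagram symmetries. -/

set_option autoImplicit false

namespace CF.Kf.O6

open CF.Chev CF.BN

variable {B ι : Type} [Fintype B] [DecidableEq B] [Fintype ι] [DecidableEq ι]
  {R : RootSys B ι} {S : Sym R} {n : ℕ}

theorem car_p (ha : S.π ∈ R.Aut) (i j : B) : R.car (S.p i) (S.p j) = R.car i j := by
  rw [← R.A_simple_simple, ← S.π_simple, ← S.π_simple, RootSys.A_aut ha, R.A_simple_simple]

theorem odd_of (h : ∀ j, ∃ k, Odd (R.car k j)) (r : ι) : ∃ a, Odd (R.A a r) := by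
  obtain ⟨w, hw, j, rfl⟩ := R.exists_W_simple r
  obtain ⟨k, hk⟩ := h j
  exact ⟨w (R.simple k), by rwa [RootSys.A_aut (R.W_le_Aut hw), R.A_simple_simple]⟩

theorem orb_one (h : S.p = 1) : Orb S := .inl fun j => by simp [h]

theorem eq_one {π : Equiv.Perm (Fin n)} (r : Fin n → Fin n → Prop)
    (h : ∀ i j, r i j → r (π i) (π j))
    (H : ∀ i, π i = i ∨ ∃ j, i < j ∧ r i j ∧ ∀ k, r k j → i ≤ k) : π = 1 := Equiv.ext fun i => by
  induction' i using WellFoundedGT.induction with i ih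
  obtain e | ⟨j, h1, h2, h3⟩ := H i
  · exact e
  exact (h3 _ ((show π j = j from ih j h1) ▸ h i j h2)).eq_or_lt.elim Eq.symm
    fun e => π.injective (ih _ e)

theorem symB (hn : 2 ≤ n) {π : Equiv.Perm (Fin n)}
    (h : ∀ i j, (cbB n).car (π i) (π j) = (cbB n).car i j) : π = 1 :=
  eq_one (fun i j => (cbB n).car i j = -1) (fun i j a => (h i j).trans a) fun i => by
    by_cases e : i.val + 1 = n
    · have := h i ⟨n - 2, by omega⟩
      simp only [cbB_car, Fin.ext_iff] at this ⊢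
      left; omega
    · refine .inr ⟨⟨i + 1, by omega⟩, by simp [Fin.lt_def], ?_, fun k => ?_⟩ <;>
        simp only [cbB_car, Fin.le_def, Fin.ext_iff] <;> split_ifs <;> first | omega | simp_all

theorem symC (hn : 2 ≤ n) {π : Equiv.Perm (Fin n)}
    (h : ∀ i j, (cbC n).car (π i) (π j) = (cbC n).car i j) : π = 1 :=
  eq_one (fun i j => (cbC n).car j i = -1) (fun i j a => (h j i).trans a) fun i => by
    by_cases e : i.val + 1 = n
    · have := h ⟨n - 2, by omega⟩ i
      simp only [cbC_car, Fin.ext_iff] at this ⊢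
      left; omega
    · refine .inr ⟨⟨i + 1, by omega⟩, by simp [Fin.lt_def], ?_, fun k => ?_⟩ <;>
        simp only [cbC_car, Fin.le_def, Fin.ext_iff] <;> split_ifs <;> first | omega | simp_all

theorem oddB (hn : 3 ≤ n) (j : Fin n) : ∃ k, Odd ((cbB n).car k j) := by
  by_cases e : j.val = 0
  · refine ⟨⟨1, by omega⟩, Int.odd_iff.2 ?_⟩
    simp only [cbB_car, Fin.ext_iff]; omega
  · refine ⟨⟨j - 1, by omega⟩, Int.odd_iff.2 ?_⟩
    simp only [cbB_car, Fin.ext_iff]; omega

theorem symF4 {π : Equiv.Perm (Fin 4)} (h : ∀ i j, cF4.car (π i) (π j) = cF4.car i j) : π = 1 := by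
  simp only [carF4'] at h
  revert π; decide +kernel

theorem oddF4 (j : Fin 4) : ∃ k, Odd (cF4.car k j) := by
  simp only [carF4']
  revert j; decide +kernel

theorem symG2 {π : Equiv.Perm (Fin 2)} (h : ∀ i j, cG2.car (π i) (π j) = cG2.car i j) : π = 1 := by
  simp only [carG2'] at h
  revert π; decide +kernel

theorem oddG2 (j : Fin 2) : ∃ k, Odd (cG2.car k j) := by
  simp only [carG2']
  revert j; decide +kernel

theorem sq_cases {q : ℕ} (h : q % 2 = 1) : (sq q : ZMod 8) = 1 ∨ (sq q : ZMod 8) = 5 := by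
  have h1 : sq q % 8 = 1 ∨ sq q % 8 = 5 := by unfold sq; split_ifs <;> omega
  exact h1.imp (fun h => (ZMod.intCast_eq_intCast_iff' _ 1 8).2 h)
    fun h => (ZMod.intCast_eq_intCast_iff' _ 5 8).2 h

theorem sq_one {q : ℕ} (h : q % 8 = 1 ∨ q % 8 = 7) : (sq q : ZMod 8) = 1 :=
  (ZMod.intCast_eq_intCast_iff' _ 1 8).2 (show sq q % 8 = 1 by unfold sq; split_ifs <;> omega)

end CF.Kf.O6
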